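/-
The torus and the two reflections acting on the image of `UO` in `F₄(K)`.
-/
import Cfsg.Agent.RF4.MU
import Cfsg.Agent.Chev.EGOct2
import Cfsg.Agent.Chev.InvTw
import Cfsg.Agent.Chev.TwRealF4

set_option autoImplicit false
set_option maxRecDepth 20000
set_option linter.unusedSectionVars false

namespace CL.RF4

open Cfsg Cfsg.Lie CL.Chev CL.Chev.Cert CL.Oct CL.Oct.UO CL.Cox

variable {K : Type*} [Field K] [CharP K 2] {P : Par K} (E : Real chevF4)

theorem two_eq : (2 : K) = 0 := CharP.cast_eq_zero K 2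

theorem sperm_val (l : List (Fin chevF4.rank)) (r : Fin chevF4.nroots) :
    (wprod E.R.sperm l r : ℕ) = (l.map Fin.val).foldr auxF4.w r := by
  induction l with
  | nil => rfl
  | cons i l ih => simp [tabF4.sref, ih]

theorem conj_w (l : List (Fin chevF4.rank)) {r : ℕ} (hr : r < 48) (t : K) :
    wprod (E.S K).nS l * E.xN r t * (wprod (E.S K).nS l)⁻¹ = E.xN ((l.map Fin.val).foldr auxF4.w r) t := by
  rw [E.xN_of_lt (show r < chevF4.nroots from hr), StSys.conj_wprod_two two_eq, ← E.xN_coe, sperm_val]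

theorem wprod_eq_one (l : List (Fin chevF4.rank))
    (h : allLt 48 (fun r => Nat.beq ((l.map Fin.val).foldr auxF4.w r) r) = true) : wprod (E.S K).nS l = 1 :=
  (E.adjoint K).wprod_eq two_eq (l' := []) (Equiv.ext fun r => Fin.ext
    ((sperm_val E l r).trans (Nat.eq_of_beq_eq_true ((allLt_iff _ _).1 h r r.2))))

def wl (k : Fin 2) : List (Fin chevF4.rank) := wF4 k

variable (K) in
/-- the reflection of the Suzuki class -/
noncomputable def nn : GL chevF4.Idx K := wprod (E.S K).nS (wl 1)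
variable (K) in
/-- the reflection of the other class -/
noncomputable def mm : GL chevF4.Idx K := wprod (E.S K).nS (wl 0)

theorem nn_sq : nn K E * nn K E = 1 := by
  rw [nn, ← wprod_append]; exact wprod_eq_one E _ (by decide +kernel)
theorem mm_sq : mm K E * mm K E = 1 := by
  rw [mm, ← wprod_append]; exact wprod_eq_one E _ (by decide +kernel)
theorem nn_inv : (nn K E)⁻¹ = nn K E := inv_eq_of_mul_eq_one_right (nn_sq E)
theorem mm_inv : (mm K E)⁻¹ = mm K E := inv_eq_of_mul_eq_one_right (mm_sq E)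

theorem mn_pow : (mm K E * nn K E) ^ 8 = 1 := by
  have h : (mm K E * nn K E) ^ 2 = wprod (E.S K).nS (wl 0 ++ wl 1 ++ (wl 0 ++ wl 1)) := by
    simp only [pow_two, wprod_append, mm, nn]
  rw [show 8 = 2 * 2 * 2 from rfl, pow_mul, pow_mul, h, pow_two, pow_two, ← wprod_append, ← wprod_append]
  exact wprod_eq_one E _ (by decide +kernel)

def wn (r : ℕ) : ℕ := [0, 5, 4, 3, 2, 1, 6, 11, 9, 8, 14, 7, 13, 12, 10, 23, 21, 30, 18, 28, 27, 16, 25, 15, 32, 22,
  31, 20, 19, 29, 17, 26, 24, 37, 35, 34, 40, 33, 39, 38, 36, 41, 46, 45, 44, 43, 42, 47].getD r 0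
def wm (r : ℕ) : ℕ := [1, 0, 2, 7, 15, 17, 16, 3, 8, 10, 9, 19, 18, 20, 33, 4, 6, 5, 12, 11, 13, 22, 21, 24, 23, 26,
  25, 34, 36, 35, 42, 41, 43, 14, 27, 29, 28, 38, 37, 39, 44, 31, 30, 32, 40, 45, 47, 46].getD r 0

theorem conj_nn {r : ℕ} (hr : r < 48) (t : K) : nn K E * E.xN r t * nn K E = E.xN (wn r) t := by
  have := conj_w E (wl 1) hr t
  rw [← nn, nn_inv] at this
  rw [this, (by decide +kernel : ∀ r < 48, ((wl 1).map Fin.val).foldr auxF4.w r = wn r) r hr]

theorem conj_mm {r : ℕ} (hr : r < 48) (t : K) : mm K E * E.xN r t * mm K E = E.xN (wm r) t := by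
  have := conj_w E (wl 0) hr t
  rw [← mm, mm_inv] at this
  rw [this, (by decide +kernel : ∀ r < 48, ((wl 0).map Fin.val).foldr auxF4.w r = wm r) r hr]

/-- conjugation of a word -/
theorem conj_word {g g' : GL chevF4.Idx K} (hg : g' * g = 1) {f : ℕ × K → ℕ × K} {w : List (ℕ × K)}
    (h : ∀ a ∈ w, g * E.xN a.1 a.2 * g' = E.xN (f a).1 (f a).2) : g * E.word w * g' = E.word (w.map f) := by
  induction w with
  | nil => simpa [Real.word] using mul_eq_one_comm.1 hg
  | cons a w ih =>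
    have := ih fun b hb => h b (by simp [hb])
    simp only [Real.word, List.map_cons, List.prod_cons] at this ⊢
    rw [← this, ← h a (by simp), mul_assoc _ g', ← mul_assoc g', ← mul_assoc g', hg]
    simp only [mul_assoc, one_mul]

theorem atomW_lt {k : ℕ} (hk : k < 12) (t s r : K) : ∀ a ∈ atomW k t s r, 24 ≤ a.1 ∧ a.1 < 48 := by
  interval_cases k <;> simp [atomW]

theorem nn_atm {k : ℕ} (hk : k < 10) (t : K) :
    nn K E * atm P E k t * nn K E = atm P E ([9, 7, 8, 6, 4, 5, 3, 1, 2, 0].getD k 0) t := by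
  rw [atm, conj_word E (nn_sq E) (f := fun a => (wn a.1, a.2)) fun a ha =>
    conj_nn E (atomW_lt (by omega) _ _ _ a ha).2 _]
  interval_cases k <;> rfl

theorem mm_atm {k : ℕ} (h0 : 0 < k) (hk : k < 12) (t : K) :
    mm K E * atm P E k t * mm K E = atm P E ([0, 10, 11, 9, 7, 8, 6, 4, 5, 3, 1, 2].getD k 0) t := by
  rw [atm, conj_word E (mm_sq E) (f := fun a => (wm a.1, a.2)) fun a ha => conj_mm E (atomW_lt hk _ _ _ a ha).2 _]
  interval_cases k <;> rfl

theorem gn_zero {k : ℕ} (hk : k < 12) : gn P k 0 = 1 := by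
  interval_cases k <;> rfl

theorem conj_uH {g g' : GL chevF4.Idx K} (hg : g' * g = 1) {x : UO P} {f : ℕ → UO P}
    (h : ∀ k < 12, g * atm P E k (co x k) * g' = uH P E (f k)) :
    g * uH P E x * g' = uH P E ((List.range 12).map f).prod := by
  have : ∀ l : List ℕ, (∀ k ∈ l, k < 12) →
      g * (l.map fun k => atm P E k (co x k)).prod * g' = uH P E (l.map f).prod := by
    intro l hl
    induction l with
    | nil => simpa using mul_eq_one_comm.1 hg
    | cons a l ih =>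
      rw [List.map_cons, List.prod_cons, List.map_cons, List.prod_cons, map_mul, ← ih fun k hk => hl k (by simp [hk]),
        ← h a (hl a (by simp)), mul_assoc _ g', ← mul_assoc g', ← mul_assoc g', hg]
      simp only [mul_assoc, one_mul]
  exact this _ fun k hk => List.mem_range.1 hk

theorem nn_uH {x : UO P} (hx : x ∈ Qs P) : nn K E * uH P E x * nn K E = uH P E (rn x) := by
  rw [conj_uH E (nn_sq E) (f := fun k => if k < 10 then gn P ([9, 7, 8, 6, 4, 5, 3, 1, 2, 0].getD k 0) (co x k) else 1),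
    rn_eq]
  · simp [List.range_succ, gn, co, mul_assoc]
  · intro k hk
    by_cases h : k < 10
    · rw [if_pos h, nn_atm E h, uH_gn]
      interval_cases k <;> simp
    · have : co x k = 0 := by interval_cases k <;> first | omega | exact hx.1 | exact hx.2
      rw [if_neg h, this, ← uH_gn E hk, gn_zero hk, map_one, mul_one, nn_sq]

theorem mm_uH {x : UO P} (hx : x ∈ Qp P) : mm K E * uH P E x * mm K E = uH P E (rp x) := by
  rw [conj_uH E (mm_sq E)
    (f := fun k => if 0 < k then gn P ([0, 10, 11, 9, 7, 8, 6, 4, 5, 3, 1, 2].getD k 0) (co x k) else 1), rp_eq]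
  · simp [List.range_succ, gn, co, mul_assoc]
  · intro k hk
    by_cases h : 0 < k
    · rw [if_pos h, mm_atm E h hk, uH_gn]
      interval_cases k <;> simp
    · obtain rfl : k = 0 := by omega
      rw [if_neg h, show co x 0 = 0 from hx, ← uH_gn E hk, gn_zero hk, map_one, mul_one, mm_sq]

/-! ### the torus -/

variable (P) in
/-- the values of the simple roots -/
def vec : Kˣ × Kˣ →* (Fin 4 → Kˣ) :=
  MonoidHom.mk' (fun p => ![p.1, p.2, σu P p.2, σu P p.1]) fun p q => by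
    ext1 i; fin_cases i <;> simp

def cInv : Matrix (Fin 4) (Fin 4) ℤ := !![2, 3, 4, 2; 3, 6, 8, 4; 2, 4, 6, 3; 1, 2, 3, 2]

variable (P) in
/-- the torus -/
noncomputable def tor : Kˣ × Kˣ →* GL chevF4.Idx K :=
  (E.hMul K).torus.comp ((matPow Kˣ cInv).comp (vec P))

theorem tor_mem (p : Kˣ × Kˣ) : tor P E p ∈ (E.S K).H := (E.hMul K).torus_mem_H (matPow Kˣ cInv (vec P p))

variable (P) in
/-- the character of a root -/
def ch (r : ℕ) (p : Kˣ × Kˣ) : K :=
  (p.1 : K) ^ auxF4.rt r 0 * (p.2 : K) ^ auxF4.rt r 1 * P.σ p.2 ^ auxF4.rt r 2 * P.σ p.1 ^ auxF4.rt r 3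

theorem conj_tor (p : Kˣ × Kˣ) {r : ℕ} (hr : r < 48) (t : K) :
    tor P E p * E.xN r t * (tor P E p)⁻¹ = E.xN r (ch P r p * t) := by
  have hc : ∀ j : Fin 4, E.R.chi Kˣ (E.R.simple j) (matPow Kˣ cInv (vec P p)) = vec P p j := fun j => by
    have h : E.R.cartanM = cF4 := E.cartanM_eq.trans datCartan_F4
    have h' : matPow Kˣ cF4 (matPow Kˣ cInv (vec P p)) = vec P p := by
      rw [← matPow_mul, show cInv * cF4 = 1 by decide, matPow_one]
    exact (RS.chi_simple E.R j _).trans ((congrArg (fun A => matPow Kˣ A (matPow Kˣ cInv (vec P p)) j) h).trans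
      (congrFun h' j))
  have h1 : E.R.chi Kˣ ⟨r, hr⟩ (matPow Kˣ cInv (vec P p)) = ∏ j : Fin 4, vec P p j ^ auxF4.rt r j :=
    (RS.chi_eq_prod E.R ⟨r, hr⟩ _).trans (Finset.prod_congr rfl fun j _ => by rw [hc j, tabF4.root E])
  have h2 := (E.hMul K).conj_torus (matPow Kˣ cInv (vec P p)) ⟨r, hr⟩ t
  rw [E.xN_of_lt (show r < chevF4.nroots from hr), E.xN_of_lt (show r < chevF4.nroots from hr)]
  refine h2.trans ?_
  congr 2
  refine (congrArg Units.val h1).trans ?_
  simp [ch, vec, Fin.prod_univ_four]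

def rtL (r : ℕ) : List ℤ := [[-2, -4, -3, -2], [-2, -4, -3, -1], [-2, -4, -2, -1], [-2, -3, -2, -1], [-2, -2, -2, -1],
  [-2, -2, -1, -1], [-2, -2, -1, 0], [-1, -3, -2, -1], [-1, -2, -2, -1], [-1, -2, -1, -1], [-1, -2, -1, 0],
  [-1, -1, -1, -1], [-1, -1, -1, 0], [-1, -1, 0, 0], [-1, 0, 0, 0], [0, -2, -2, -1], [0, -2, -1, -1], [0, -2, -1, 0],
  [0, -1, -1, -1], [0, -1, -1, 0], [0, -1, 0, 0], [0, 0, -1, -1], [0, 0, -1, 0], [0, 0, 0, -1], [0, 0, 0, 1],
  [0, 0, 1, 0], [0, 0, 1, 1], [0, 1, 0, 0], [0, 1, 1, 0], [0, 1, 1, 1], [0, 2, 1, 0], [0, 2, 1, 1], [0, 2, 2, 1],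
  [1, 0, 0, 0], [1, 1, 0, 0], [1, 1, 1, 0], [1, 1, 1, 1], [1, 2, 1, 0], [1, 2, 1, 1], [1, 2, 2, 1], [1, 3, 2, 1],
  [2, 2, 1, 0], [2, 2, 1, 1], [2, 2, 2, 1], [2, 3, 2, 1], [2, 4, 2, 1], [2, 4, 3, 1], [2, 4, 3, 2]].getD r []

theorem ch_eq {r : ℕ} (hr : r < 48) (p : Kˣ × Kˣ) : ch P r p = (p.1 : K) ^ (rtL r).getD 0 0 *
    (p.2 : K) ^ (rtL r).getD 1 0 * P.σ p.2 ^ (rtL r).getD 2 0 * P.σ p.1 ^ (rtL r).getD 3 0 := by
  have h := (by decide +kernel : ∀ r < 48, ∀ i < 4, auxF4.rt r i = (rtL r).getD i 0) r hr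
  rw [ch, h 0 (by omega), h 1 (by omega), h 2 (by omega), h 3 (by omega)]

theorem tor_uH (p : Kˣ × Kˣ) (x : UO P) : tor P E p * uH P E x * (tor P E p)⁻¹ = uH P E (dg P p x) := by
  rw [conj_uH E (inv_mul_cancel _) (f := fun k => gn P k (co (dg P p x) k))]
  · refine congrArg _ ((nf (dg P p x)).trans ?_).symm
    simp only [List.range_succ, List.range_zero, List.nil_append, List.cons_append, List.map_cons, List.map_nil,
      List.prod_cons, List.prod_nil, mul_one, mul_assoc, gn, co, List.getD_cons_succ, List.getD_cons_zero]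
  · intro k hk
    rw [uH_gn E hk, atm, conj_word E (inv_mul_cancel _) (f := fun a => (a.1, ch P a.1 p * a.2)) fun a ha =>
      conj_tor E p (atomW_lt hk _ _ _ a ha).2 _, atm]
    congr 1
    interval_cases k <;>
      simp (disch := omega) only [atomW, co, List.getD_cons_succ, List.getD_cons_zero, List.map_cons, List.map_nil,
        ch_eq, rtL, dg_a1, dg_b2, dg_a2, dg_a3, dg_b4, dg_a4, dg_a5, dg_b6, dg_a6, dg_a7, dg_b8, dg_a8, c1, d2, c2, c3,
        d4, c4, c5, d6, c6, c7, d8, c8, map_mul, map_pow, P.sq, zpow_ofNat, List.cons.injEq, Prod.mk.injEq, true_and,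
        and_true] <;> (repeat' apply And.intro) <;> ring

/-- elements of the torus are determined by their action on the simple root elements -/
theorem eq_of_act {g g' : GL chevF4.Idx K} (hg : g ∈ (E.S K).H) (hg' : g' ∈ (E.S K).H)
    (h : ∀ r ∈ [33, 27, 25, 24], g * E.xN r (1 : K) * g⁻¹ = g' * E.xN r (1 : K) * g'⁻¹) : g = g' := by
  have := (E.faithful K).eq_one_of_commute (E.adjoint K) (mul_mem (inv_mem hg') hg) fun i =>
    ⟨[E.R.simple i], fun _ => 1, by simp, by simp [E.R.pos_simple], by simp, one_ne_zero, by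
      have h1 := h (E.R.simple i) (by
        rw [tabF4.simple E]; exact (by decide +kernel : ∀ i : Fin 4, auxF4.sim i ∈ [33, 27, 25, 24]) i)
      rw [E.xN_coe] at h1
      simp only [StSys.prodL_cons, StSys.prodL_nil, mul_one]
      calc _ = g'⁻¹ * (g * (E.S K).x (E.R.simple i) 1 * g⁻¹) * g := by group
        _ = _ := by rw [h1]; group⟩
  exact (inv_mul_eq_one.1 this).symm

theorem conj_tor_of {n : GL chevF4.Idx K} (hn : n * n = 1) (hN : n ∈ (E.S K).N) {w : ℕ → ℕ}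
    (hw : ∀ r < 48, ∀ t : K, n * E.xN r t * n = E.xN (w r) t) (hw' : ∀ r < 48, w r < 48 ∧ w (w r) = r) {p q : Kˣ × Kˣ}
    (h : ∀ r ∈ [33, 27, 25, 24], ch P (w r) p = ch P r q) : n * tor P E p * n = tor P E q := by
  have hi : n⁻¹ = n := inv_eq_of_mul_eq_one_right hn
  refine eq_of_act E (by simpa only [hi] using Subgroup.mem_normalizer_iff.1 ((E.S K).N_le_normalizer_H hN) _ |>.1 (tor_mem E p))
    (tor_mem E q) fun r hr => ?_
  have hr' : r < 48 := by simp at hr; omega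
  rw [conj_tor E q hr', ← h r hr]
  calc _ = n * (tor P E p * (n * E.xN r (1 : K) * n) * (tor P E p)⁻¹) * n := by simp only [mul_inv_rev, hi, mul_assoc]
    _ = _ := by rw [hw r hr', conj_tor E p (hw' r hr').1, hw _ (hw' r hr').1, (hw' r hr').2]

theorem nn_mem_N : nn K E ∈ (E.S K).N := StSys.NW_mem_N ((E.S K).wprod_mem_NW _)
theorem mm_mem_N : mm K E ∈ (E.S K).N := StSys.NW_mem_N ((E.S K).wprod_mem_NW _)

theorem σ_ne (t : Kˣ) : P.σ t ≠ 0 := (map_ne_zero P.σ).2 t.ne_zero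

theorem nn_tor (p : Kˣ × Kˣ) : nn K E * tor P E p * nn K E = tor P E (sn P p) := by
  refine conj_tor_of E (nn_sq E) (nn_mem_N E) (fun r hr => conj_nn E hr) (by decide +kernel) ?_
  have h1 := σ_ne (P := P) p.2
  have h2 := p.2.ne_zero
  simp (disch := omega) only [List.mem_cons, List.not_mem_nil, or_false, forall_eq_or_imp, forall_eq, wn, ch_eq, rtL,
    List.getD_cons_succ, List.getD_cons_zero, sn, Units.val_mul, Units.val_pow_eq_pow_val, coe_σu,
    Units.val_inv_eq_inv_val, map_mul, map_pow, map_inv₀, P.sq, zpow_ofNat, zpow_neg, Int.reduceNeg]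
  refine ⟨?_, ?_, ?_, ?_⟩ <;> field_simp

theorem mm_tor (p : Kˣ × Kˣ) : mm K E * tor P E p * mm K E = tor P E (sp p) := by
  refine conj_tor_of E (mm_sq E) (mm_mem_N E) (fun r hr => conj_mm E hr) (by decide +kernel) ?_
  have h1 := σ_ne (P := P) p.1
  have h2 := p.1.ne_zero
  simp (disch := omega) only [List.mem_cons, List.not_mem_nil, or_false, forall_eq_or_imp, forall_eq, wm, ch_eq, rtL,
    List.getD_cons_succ, List.getD_cons_zero, sp, Units.val_mul, Units.val_inv_eq_inv_val, map_mul, map_inv₀,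
    zpow_ofNat, zpow_neg, Int.reduceNeg]
  refine ⟨?_, ?_, ?_, ?_⟩ <;> field_simp

theorem neg_self (t : K) : -t = t := CharTwo.neg_eq t

/-- the `SL₂` relation for one root -/
theorem sl2 (r : Fin chevF4.nroots) (s : Kˣ) : (E.S K).x (E.R.neg r) (s⁻¹ : Kˣ) =
    (E.S K).x r s * (E.S K).n r s * (E.S K).x r s := by
  have h : (E.S K).x r (s : K) * (E.S K).x r (s : K) = 1 := by
    rw [← StSys.x_add, CharTwo.add_self_eq_zero, StSys.x_zero]
  rw [StSys.n, neg_self, ← mul_assoc, ← mul_assoc, h, one_mul, mul_assoc, h, mul_one, Units.val_inv_eq_inv_val]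

theorem uH_x1 (s : K) : uH P E (x1 s) = E.xN 33 s * E.xN 24 (P.σ s) :=
  (uH_gn E (g := 0) (by omega) s).trans (by simp [atm, atomW, Real.word])

theorem mm_x1 (s : K) : mm K E * uH P E (x1 s) * mm K E = E.xN 14 s * E.xN 23 (P.σ s) := by
  have h1 : mm K E * E.xN 33 s * mm K E = E.xN 14 s := conj_mm E (r := 33) (by omega) _
  have h2 : mm K E * E.xN 24 (P.σ s) * mm K E = E.xN 23 (P.σ s) := conj_mm E (r := 24) (by omega) _
  rw [uH_x1, ← h1, ← h2]
  calc _ = mm K E * E.xN 33 s * (mm K E * mm K E) * E.xN 24 (P.σ s) * mm K E := by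
        rw [mm_sq]; simp only [mul_assoc, one_mul]
    _ = _ := by simp only [mul_assoc]

theorem rank_one (t : Kˣ) : mm K E * uH P E (x1 (t : K)) * mm K E =
    uH P E (x1 (t⁻¹ : Kˣ)) * tor P E (t⁻¹ ^ 2, t) * mm K E * uH P E (x1 (t⁻¹ : Kˣ)) := by
  obtain ⟨a, ha⟩ : ∃ a : Fin chevF4.rank, a = (0 : Fin 4) := ⟨_, rfl⟩
  obtain ⟨b, hb⟩ : ∃ a : Fin chevF4.rank, a = (3 : Fin 4) := ⟨_, rfl⟩
  have sa : (E.R.simple a : ℕ) = 33 := by rw [tabF4.simple E, ha]; decide +kernel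
  have sb : (E.R.simple b : ℕ) = 24 := by rw [tabF4.simple E, hb]; decide +kernel
  have ea : ∀ s : K, (E.S K).x (E.R.simple a) s = E.xN 33 s := fun s => by rw [← E.xN_coe, sa]
  have eb : ∀ s : K, (E.S K).x (E.R.simple b) s = E.xN 24 s := fun s => by rw [← E.xN_coe, sb]
  have ea' : ∀ s : K, (E.S K).x (E.R.neg (E.R.simple a)) s = E.xN 14 s := fun s => by
    rw [← E.xN_coe, tabF4.neg E, sa, show auxF4.ng 33 = 14 by decide +kernel]
  have eb' : ∀ s : K, (E.S K).x (E.R.neg (E.R.simple b)) s = E.xN 23 s := fun s => by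
    rw [← E.xN_coe, tabF4.neg E, sb, show auxF4.ng 24 = 23 by decide +kernel]
  have hc : ∀ r ∈ [33, 14], ∀ s ∈ [24, 23], ∀ c d : K, Commute (E.xN r c) (E.xN s d) := fun r hr s hs =>
    have := (by decide +kernel : ∀ r ∈ [33, 14], ∀ s ∈ [24, 23], r < auxF4.n ∧ s < auxF4.n ∧ auxF4.commIn [] r s = true)
      r hr s hs
    tabF4.commute_of_commIn E two_eq this.1 this.2.1 this.2.2
  have hn : ∀ c d : K, ∀ s ∈ [24, 23], Commute ((E.S K).n (E.R.simple a) c) (E.xN s d) := fun c d s hs => by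
    rw [StSys.n, ea, ea']
    exact ((hc 33 (by simp) s hs _ _).mul_left (hc 14 (by simp) s hs _ _)).mul_left (hc 33 (by simp) s hs _ _)
  have hg : ∀ (g : GL chevF4.Idx K) (d : K), (∀ d : K, ∀ s ∈ [24, 23], Commute g (E.xN s d)) →
      Commute g ((E.S K).n (E.R.simple b) d) := fun g d h => by
    rw [StSys.n, eb, eb']
    exact ((h _ 24 (by simp)).mul_right (h _ 23 (by simp))).mul_right (h _ 24 (by simp))
  have hm : mm K E = (E.S K).n (E.R.simple a) 1 * (E.S K).n (E.R.simple b) 1 := by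
    rw [ha, hb]; exact congrArg _ (mul_one _)
  have ht : tor P E (t⁻¹ ^ 2, t) = (E.S K).h (E.R.simple a) (t⁻¹ : Kˣ) * (E.S K).h (E.R.simple b) (σu P t⁻¹) := by
    rw [← (E.hMul K).torus_mulSingle, ← (E.hMul K).torus_mulSingle, ← map_mul, ha, hb]
    refine congrArg (E.hMul K).torus (?_ : matPow Kˣ cInv (vec P (t⁻¹ ^ 2, t)) =
      Pi.mulSingle (M := fun _ : Fin 4 => Kˣ) 0 t⁻¹ * Pi.mulSingle (M := fun _ : Fin 4 => Kˣ) 3 (σu P t⁻¹))
    funext j
    fin_cases j <;> simp [matPow_apply, Fin.prod_univ_four, cInv, vec, zpow_ofNat] <;> group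
  have h0 : tor P E (t⁻¹ ^ 2, t) * mm K E =
      (E.S K).n (E.R.simple a) (t⁻¹ : Kˣ) * (E.S K).n (E.R.simple b) (σu P t⁻¹) := by
    have : Commute ((E.S K).n (E.R.simple a) 1) ((E.S K).h (E.R.simple b) (σu P t⁻¹)) :=
      (hg _ _ (hn 1)).mul_right (hg _ _ (hn 1))
    rw [ht, hm, (E.S K).n_eq_h_mul (E.R.simple a) (t⁻¹ : Kˣ), (E.S K).n_eq_h_mul (E.R.simple b) (σu P t⁻¹), mul_assoc,
      mul_assoc, ← mul_assoc _ _ ((E.S K).n (E.R.simple b) 1), ← this.eq, mul_assoc]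
  have h2 := sl2 E (E.R.simple a) t⁻¹
  have h3 := sl2 E (E.R.simple b) (σu P t⁻¹)
  rw [inv_inv, ea', ea] at h2
  rw [← map_inv, inv_inv, eb', eb, coe_σu] at h3
  rw [mm_x1, h2, h3, uH_x1, mul_assoc _ (tor P E _), h0, ← coe_σu]
  have c1 := (hn (t⁻¹ : Kˣ) (σu P t⁻¹ : Kˣ) 24 (by simp)).eq
  have c2 := (hg (E.xN 33 ((t⁻¹ : Kˣ) : K)) (σu P t⁻¹ : Kˣ) fun d s hs => hc 33 (by simp) s hs _ d).eq
  have c3 := (hc 33 (by simp) 24 (by simp) (t⁻¹ : Kˣ) (σu P t⁻¹ : Kˣ)).eq
  generalize E.xN 33 ((t⁻¹ : Kˣ) : K) = x at *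
  generalize E.xN 24 ((σu P t⁻¹ : Kˣ) : K) = y at *
  generalize (E.S K).n (E.R.simple a) (t⁻¹ : Kˣ) = n at *
  generalize (E.S K).n (E.R.simple b) (σu P t⁻¹) = n' at *
  calc _ = x * n * (x * y) * n' * y := by simp only [mul_assoc]
    _ = x * (n * y) * (x * n') * y := by rw [c3]; simp only [mul_assoc]
    _ = _ := by rw [c1, c2]; simp only [mul_assoc]

end CL.RF4
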